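import Cfsg.Agent.Lib.Helper82.CY2U.DefsB

set_option autoImplicit false

/-! # Ladder PI5 (S4635), part B: induction from `H = N_G(Z)`; definitions -/

namespace Cfsg.Agent.Lib.Helper19.PI5B

open Cfsg

/-- the class function with coefficient vector `a` -/
noncomputable def lin {H : Type*} [Group H] [Fintype (IrrCharacter H)] (a : IrrCharacter H → ℂ) :
    H → ℂ :=
  fun h => ∑ η : IrrCharacter H, a η * (η : H → ℂ) h

end Cfsg.Agent.Lib.Helper19.PI5B
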