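import Cfsg.Agent.Lib.Helper19.PI5B.Defs

set_option autoImplicit false
set_option linter.unusedSectionVars false

/-! # Ladder PI5, part B, rung INB2 -/

namespace Cfsg.Agent.Lib.Helper19.PI5B

open scoped BigOperators ComplexConjugate
open Cfsg Cfsg.Agent.Lib.Helper20 Cfsg.Agent.Lib.Helper81 Cfsg.Agent.Lib.Helper80
open Cfsg.Agent.Lib.Helper80.GA Cfsg.Agent.Lib.Helper82.CY2U

variable {p : ℕ} [Fact p.Prime] {M : Ideal AlgInt} {G : Type*} [Group G] [Fintype G]

theorem lin_eq_sum {H : Type*} [Group H] [Fintype (IrrCharacter H)] (a : IrrCharacter H → ℂ) :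
    lin a = ∑ η : IrrCharacter H, a η • (η : H → ℂ) := by
  funext h
  simp [lin, Finset.sum_apply]

theorem inb_lin (hM : IsPModular p M) {B : Set (IrrCharacter G)} (H : Subgroup G)
    [Fintype (IrrCharacter H)] {c : Set (IrrCharacter H)} (hind : IsInducedBlock M H c B)
    {a : IrrCharacter H → ℂ} (ha : ∀ η, η ∉ c → a η = 0)
    (hsupp : ∀ h : H, lin a h ≠ 0 → ∀ u : G, IsPPart p (h : G) u →
      Subgroup.centralizer ({u} : Set G) ≤ H)
    {χ : IrrCharacter G} (hχ : χ ∉ B) : classInner (indFun H (lin a)) (χ : G → ℂ) = 0 := by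
  classical
  haveI : Fintype H := Fintype.ofFinite _
  have hcl : IsClassFunction H (fun h : H => (χ : G → ℂ) h) := by
    intro g h
    exact irr_classFunction χ (g : G) (h : G)
  rw [Cfsg.Agent.Lib.Helper19.frobenius_reciprocity H _ _ (irr_classFunction χ)]
  rw [← classInner_conj_symm _ (lin a)]
  have key : classInner (fun h : H => (χ : G → ℂ) h) (lin a)
      = classInner (blockPart c (fun h : H => (χ : G → ℂ) h)) (lin a) := by
    rw [lin_eq_sum, classInner_sum_right, classInner_sum_right]
    refine Finset.sum_congr rfl fun η _ => ?_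
    rw [classInner_smul_right, classInner_smul_right]
    by_cases hη : η ∈ c
    · rw [classInner_blockPart c _ hη]
    · rw [ha η hη, map_zero, zero_mul, zero_mul]
  rw [key]
  unfold classInner
  rw [Finset.sum_eq_zero, mul_zero, map_zero]
  intro h _
  by_cases h0 : lin a h = 0
  · rw [h0, map_zero, mul_zero]
  · have h1 : blockPart c (fun h : H => (χ : G → ℂ) h) h = 0 := by
      rw [blockPart_eq_sum_blockCoeff c hcl]
      exact second_main hM H hind h.2 (hsupp h h0) χ hχ
    rw [h1, zero_mul]

end Cfsg.Agent.Lib.Helper19.PI5B
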