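import Cfsg.Agent.Lib.Helper19.PI5B.Defs
import Cfsg.Agent.Lib.Helper19.IndFun
import Cfsg.Agent.Lib.Helper82.CY2U.ISO

set_option autoImplicit false
set_option linter.unusedSectionVars false

/-! # Ladder PI5, part B, rungs VAL and ISO2 -/

namespace Cfsg.Agent.Lib.Helper19.PI5B

open scoped BigOperators ComplexConjugate
open Cfsg Cfsg.Agent.Lib.Helper19 Cfsg.Agent.Lib.Helper82.CY2U

variable {G : Type*} [Group G] [Fintype G]

theorem val_in (H : Subgroup G) (A : Set G) (hTI : ∀ x ∈ A, ∀ g : G, g * x * g⁻¹ ∈ A → g ∈ H)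
    (α : H → ℂ) (hcl : IsClassFunction H α) (hα : ∀ h : H, α h ≠ 0 → (h : G) ∈ A)
    (y : H) (hy : (y : G) ∈ A) : indFun H α (y : G) = α y := by
  classical
  haveI : Fintype H := Fintype.ofFinite _
  unfold indFun
  have h1 : ∀ x : G, extendByZero H α (x⁻¹ * (y : G) * x) = if x ∈ H then α y else 0 := by
    intro x
    split_ifs with hx
    · have h2 : x⁻¹ * (y : G) * x = ((⟨x, hx⟩⁻¹ * y * (⟨x, hx⟩⁻¹)⁻¹ : H) : G) := by simp
      rw [h2, extendByZero_coe, hcl]
    · by_cases hm : x⁻¹ * (y : G) * x ∈ H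
      · rw [extendByZero_of_mem H α hm]
        by_contra h0
        apply hx
        have h3 := hα _ h0
        have h4 := hTI (y : G) hy x⁻¹ (by simpa using h3)
        simpa using H.inv_mem h4
      · exact extendByZero_of_not_mem H α hm
  simp only [h1]
  rw [← Finset.sum_filter, Finset.sum_const, nsmul_eq_mul]
  have h5 : (Finset.univ.filter (fun x : G => x ∈ H)).card = Nat.card H := by
    rw [Nat.card_eq_fintype_card, Fintype.card_subtype]
  rw [h5, ← mul_assoc, inv_mul_cancel₀, one_mul]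
  exact_mod_cast (Nat.card_pos (α := H)).ne'

theorem val_out (H : Subgroup G) (α : H → ℂ) (g : G)
    (hg : ∀ (x : G) (h : H), α h ≠ 0 → x⁻¹ * g * x ≠ (h : G)) : indFun H α g = 0 := by
  classical
  unfold indFun
  rw [Finset.sum_eq_zero, mul_zero]
  intro x _
  by_cases hm : x⁻¹ * g * x ∈ H
  · rw [extendByZero_of_mem H α hm]
    by_contra h0
    exact hg x ⟨_, hm⟩ h0 rfl
  · exact extendByZero_of_not_mem H α hm

theorem iso_cl (H : Subgroup G) [Fintype H] (A : Set G)
    (hTI : ∀ x ∈ A, ∀ g : G, g * x * g⁻¹ ∈ A → g ∈ H)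
    (α α' : H → ℂ) (hcl : IsClassFunction H α') (hα : ∀ h : H, α h ≠ 0 → (h : G) ∈ A)
    (hα' : ∀ h : H, α' h ≠ 0 → (h : G) ∈ A) :
    classInner (indFun H α) (indFun H α') = classInner α α' := by
  classical
  rw [iso_ind H H A hTI α α' hα hα']
  have h1 : ∀ g : H, (fun h : H => extendByZero H α' ((g : G) * (h : G) * (g : G)⁻¹)) = α' := by
    intro g
    funext h
    have h2 : (g : G) * (h : G) * (g : G)⁻¹ = ((g * h * g⁻¹ : H) : G) := by simp
    rw [h2, extendByZero_coe, hcl]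
  simp only [h1]
  rw [Finset.sum_const, nsmul_eq_mul, Finset.card_univ, ← Nat.card_eq_fintype_card, ← mul_assoc,
    inv_mul_cancel₀, one_mul]
  exact_mod_cast (Nat.card_pos (α := H)).ne'

end Cfsg.Agent.Lib.Helper19.PI5B
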